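import Cfsg.Agent.H9.ON.CoverPerm
import Cfsg.Agent.H16.ON7Order
import Cfsg.Prelude.Def_KGroupFacts

/-!
The triple cover of the O'Nan group: the group generated by the lifted generators.
-/

set_option autoImplicit false

namespace Cfsg.Agent.H9.ON

open Cfsg.Spor Cfsg.Agent.H16 EnumData CoxEnum

/-- The lifted group. -/
noncomputable def Gam : Subgroup (Equiv.Perm Pt) := Subgroup.closure (Set.range tau)

/-- The lifted generators in the lifted group. -/
noncomputable def gam (g : Nat) : Gam := ⟨tau g, Subgroup.subset_closure ⟨g, rfl⟩⟩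

theorem gam_sq (g : Nat) : gam g * gam g = 1 := Subtype.ext (tau_sq g)

theorem gam_closure : Subgroup.closure (Set.range gam) = ⊤ := by
  refine eq_top_iff.mpr ?_
  rintro ⟨x, hx⟩ -
  have hx' : x ∈ Subgroup.closure (Set.range tau) := hx
  induction hx' using Subgroup.closure_induction with
  | mem y hy =>
    obtain ⟨g, rfl⟩ := hy
    exact Subgroup.subset_closure ⟨g, rfl⟩
  | one => exact Subgroup.one_mem _
  | mul a b ha hb iha ihb => exact Subgroup.mul_mem _ (iha ha) (ihb hb)
  | inv a ha iha => exact Subgroup.inv_mem _ (iha ha)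

theorem coe_ev : ∀ w : List Nat, ((ev gam w : Gam) : Equiv.Perm Pt) = ev tau w
  | [] => rfl
  | g :: w => by rw [ev, ev, Subgroup.coe_mul, coe_ev w]; rfl

theorem commute_sft (x : Gam) (c : Multiplicative (ZMod 3)) : Commute (sft c) (x : Equiv.Perm Pt) := by
  obtain ⟨x, hx⟩ := x
  change x ∈ Subgroup.closure (Set.range tau) at hx
  show Commute (sft c) x
  induction hx using Subgroup.closure_induction with
  | mem y hy => obtain ⟨g, rfl⟩ := hy; exact tau_sft g c
  | one => exact Commute.one_right _
  | mul a b _ _ iha ihb => exact iha.mul_right ihb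
  | inv a _ iha => exact iha.inv_right

theorem sft_mem (c : Multiplicative (ZMod 3)) : sft c ∈ Gam := by
  have h1 : sft (Multiplicative.ofAdd (1 : ZMod 3)) ∈ Gam := by
    have h := (ev gam (baseW.getD 27 [])).2
    rw [coe_ev, ev_tau_base (by norm_num : 27 < 30)] at h
    simpa [kOf] using h
  have e : c = Multiplicative.ofAdd (1 : ZMod 3) ^ (Multiplicative.toAdd c).val := by
    rw [← ofAdd_nsmul, nsmul_one, ZMod.natCast_zmod_val, ofAdd_toAdd]
  rw [e, map_pow]
  exact Subgroup.pow_mem _ h1 _

/-- The shifts in the lifted group. -/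
noncomputable def zeta : Multiplicative (ZMod 3) →* Gam := sft.codRestrict Gam sft_mem

theorem zeta_injective : Function.Injective zeta := fun _ _ h =>
  sft_injective (congrArg Subtype.val h)

theorem commute_zeta (x : Gam) (c : Multiplicative (ZMod 3)) : Commute (zeta c) x :=
  Subtype.ext (commute_sft x c)

instance : zeta.range.Normal where
  conj_mem := by
    rintro _ ⟨c, rfl⟩ x
    exact ⟨c, by rw [← (commute_zeta x c).eq, mul_inv_cancel_right]⟩

/-- The permutation of the points under a lifted element. -/
noncomputable def forgetPerm (x : Gam) : Equiv.Perm (Fin ON7H.data.n) where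
  toFun i := ((x : Equiv.Perm Pt) (i, 0)).1
  invFun i := (((x⁻¹ : Gam) : Equiv.Perm Pt) (i, 0)).1
  left_inv i := by
    have h := Equiv.congr_fun (commute_sft x⁻¹ (Multiplicative.ofAdd
      (((x : Equiv.Perm Pt) (i, 0)).2))).eq ((((x : Equiv.Perm Pt) (i, 0)).1, 0))
    simp only [Equiv.Perm.mul_apply, sft_apply, toAdd_ofAdd, zero_add] at h
    have h2 := congrArg Prod.fst h
    simp only [InvMemClass.coe_inv, Equiv.Perm.coe_inv, Prod.mk.eta, Equiv.symm_apply_apply] at h2
    simpa using h2
  right_inv i := by
    have h := Equiv.congr_fun (commute_sft x (Multiplicative.ofAdd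
      ((((x⁻¹ : Gam) : Equiv.Perm Pt) (i, 0)).2))).eq (((((x⁻¹ : Gam) : Equiv.Perm Pt) (i, 0)).1, 0))
    simp only [Equiv.Perm.mul_apply, sft_apply, toAdd_ofAdd, zero_add] at h
    have h2 := congrArg Prod.fst h
    simp only [InvMemClass.coe_inv, Equiv.Perm.coe_inv, Prod.mk.eta, Equiv.apply_symm_apply] at h2
    simpa using h2

theorem apply_fst (x : Gam) (i : Fin ON7H.data.n) (l : ZMod 3) :
    ((x : Equiv.Perm Pt) (i, l)).1 = forgetPerm x i := by
  have h := Equiv.congr_fun (commute_sft x (Multiplicative.ofAdd l)).eq (i, 0)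
  simp only [Equiv.Perm.mul_apply, sft_apply, toAdd_ofAdd, zero_add] at h
  exact (congrArg Prod.fst h).symm

/-- Forgetting the labels. -/
noncomputable def forget : Gam →* Equiv.Perm (Fin ON7H.data.n) where
  toFun := forgetPerm
  map_one' := Equiv.ext fun _ => rfl
  map_mul' x y := Equiv.ext fun i => by
    show ((x : Equiv.Perm Pt) ((y : Equiv.Perm Pt) (i, 0))).1 = forgetPerm x (forgetPerm y i)
    rw [← Prod.mk.eta (p := (y : Equiv.Perm Pt) (i, 0)), apply_fst]
    rfl

theorem forget_gam (g : Nat) : forget (gam g) = ON7H.valid.perm g := Equiv.ext fun _ => rfl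

theorem forget_le : forget.range ≤ ON7H.theModel.rho.range := by
  rintro _ ⟨x, rfl⟩
  have hx : x ∈ Subgroup.closure (Set.range gam) := gam_closure ▸ Subgroup.mem_top x
  induction hx using Subgroup.closure_induction with
  | mem y hy => obtain ⟨g, rfl⟩ := hy; exact ⟨ON7H.val g, (ON7H.theModel.rho_gen g).trans (forget_gam g).symm⟩
  | one => simp
  | mul a b _ _ iha ihb => rw [map_mul]; exact Subgroup.mul_mem _ iha ihb
  | inv a _ iha => rw [map_inv]; exact Subgroup.inv_mem _ iha

/-- The projection to the presented group. -/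
noncomputable def proj : Gam →* ON7.Grp :=
  ((MonoidHom.ofInjective ON7Order.card_and_faithful.2).symm.toMonoidHom).comp
    (forget.codRestrict ON7H.theModel.rho.range fun x => forget_le ⟨x, rfl⟩)

theorem rho_proj (x : Gam) : ON7H.theModel.rho (proj x) = forget x :=
  congrArg Subtype.val ((MonoidHom.ofInjective ON7Order.card_and_faithful.2).apply_symm_apply
    ⟨forget x, forget_le ⟨x, rfl⟩⟩)

theorem proj_gam (g : Nat) : proj (gam g) = ON7H.val g :=
  ON7Order.card_and_faithful.2 ((rho_proj _).trans ((forget_gam g).trans (ON7H.theModel.rho_gen g).symm))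

theorem proj_surjective : Function.Surjective proj := by
  rw [← MonoidHom.range_eq_top, eq_top_iff, ← ON7H.theModel.gen_closure, Subgroup.closure_le]
  rintro _ ⟨g, rfl⟩
  exact ⟨gam g, proj_gam g⟩

/-- The classes of the lifted generators modulo the shifts. -/
noncomputable def cls (x : ON7.Gen) : Gam ⧸ zeta.range :=
  QuotientGroup.mk' zeta.range (gam (ON7H.gens.idxOf x))

theorem numGen_cls (g : Nat) : numGen ON7H.gens cls g = QuotientGroup.mk' zeta.range (gam g) := by
  unfold numGen
  by_cases hg : g < ON7H.gens.length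
  · rw [List.getElem?_eq_getElem hg]
    simp only [cls, List.Nodup.idxOf_getElem ON7H.gens_nodup]
  · rw [List.getElem?_eq_none (by omega), show gam g = 1 from
      Subtype.ext (tau_outside (by have : ON7H.gens.length = 7 := rfl; omega)), map_one]

theorem ev_map {M N : Type} [Group M] [Group N] (f : M →* N) (s : Nat → M) :
    ∀ w : List Nat, f (ev s w) = ev (fun g => f (s g)) w
  | [] => map_one f
  | g :: w => by rw [ev, ev, map_mul, ev_map f s w]

theorem cls_base {w : List Nat} (hw : w ∈ ON7H.data.words.take ON7H.data.nbase) :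
    ev (numGen ON7H.gens cls) w = 1 := by
  rw [baseW_eq] at hw
  obtain ⟨k, hk, rfl⟩ := List.getElem_of_mem hw
  have hk30 : k < 30 := hk
  rw [funext numGen_cls, ← ev_map (QuotientGroup.mk' zeta.range), QuotientGroup.mk'_apply,
    QuotientGroup.eq_one_iff]
  refine ⟨Multiplicative.ofAdd (kOf k : ZMod 3), Subtype.ext ?_⟩
  rw [coe_ev, ← List.getD_eq_getElem baseW [] hk, ev_tau_base hk30]
  rfl

theorem cls_rel : ∀ r ∈ coxRelators ON7.edges ∪ {r | r ∈ ON7.extra}, FreeGroup.lift cls r = 1 := by
  have hsq : ∀ x, cls x * cls x = 1 := fun x => by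
    show QuotientGroup.mk' zeta.range _ * QuotientGroup.mk' zeta.range _ = 1
    rw [← map_mul, gam_sq, map_one]
  intro r hr
  rcases hr with ⟨x, hx, y, hy, rfl⟩ | hr
  · rw [map_pow, map_mul, FreeGroup.lift_apply_of, FreeGroup.lift_apply_of,
      ← ev_pairWord (edges := ON7.edges) cls (ON7H.mem_gens x).1 (ON7H.mem_gens y).1]
    rcases ON7H.presCheck.pairs_ok x hx y hy with h | h
    · exact cls_base (List.contains_iff_mem.mp h)
    · have := cls_base (List.contains_iff_mem.mp h)
      rw [ev_reverse _ (numGen_sq cls hsq), inv_eq_one] at this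
      exact this
  · have key : ∀ (rs : List (FreeGroup ON7.Gen)) (ws : List (List Nat)), List.Forall₂ (fun r w =>
        (ON7H.data.words.take ON7H.data.nbase).contains w = true ∧ ∀ {G : Type} [Group G]
          (f : ON7.Gen → G), (∀ x, f x * f x = 1) →
            FreeGroup.lift f r = ev (numGen ON7H.gens f) w) rs ws →
        r ∈ rs → FreeGroup.lift cls r = 1 := by
      intro rs ws hall
      induction hall with
      | nil => intro h; simp at h
      | @cons r' w' rs ws hrw _ ih =>
        intro h
        rcases List.mem_cons.mp h with rfl | h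
        · rw [hrw.2 _ hsq]; exact cls_base (List.contains_iff_mem.mp hrw.1)
        · exact ih h
    exact key _ _ ON7H.presCheck.extra_ok hr

/-- The lift to the quotient by the shifts. -/
noncomputable def sect : ON7.Grp →* Gam ⧸ zeta.range := PresentedGroup.toGroup cls_rel

theorem sect_proj (x : Gam) : sect (proj x) = QuotientGroup.mk' zeta.range x := by
  have h : Set.EqOn (sect.comp proj) (QuotientGroup.mk' zeta.range) (Set.range gam) := by
    rintro _ ⟨g, rfl⟩
    rw [MonoidHom.comp_apply, proj_gam, ← numGen_cls]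
    show sect (numGen ON7H.gens _ g) = _
    unfold numGen
    split
    · exact PresentedGroup.toGroup.of _
    · exact map_one _
  exact MonoidHom.eqOn_closure h (gam_closure ▸ Subgroup.mem_top x : x ∈ Subgroup.closure (Set.range gam))

theorem ker_proj : proj.ker = zeta.range := by
  ext x
  constructor
  · intro hx
    rw [MonoidHom.mem_ker] at hx
    have h := sect_proj x
    rw [hx, map_one] at h
    exact (QuotientGroup.eq_one_iff x).mp h.symm
  · rintro ⟨c, rfl⟩
    rw [MonoidHom.mem_ker]
    apply ON7Order.card_and_faithful.2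
    rw [rho_proj, map_one]
    exact Equiv.ext fun _ => rfl

theorem card_ker_proj : Nat.card proj.ker = 3 := by
  rw [ker_proj, ← Nat.card_congr (MonoidHom.ofInjective zeta_injective).toEquiv,
    Nat.card_congr Multiplicative.toAdd, Nat.card_zmod]

theorem ker_proj_le_commutator : proj.ker ≤ commutator Gam := by
  rw [ker_proj]
  rintro _ ⟨c, rfl⟩
  rw [← Abelianization.ker_of, MonoidHom.mem_ker]
  have h2 : ∀ x : Gam, Abelianization.of x * Abelianization.of x = 1 := by
    intro x
    have hx : x ∈ Subgroup.closure (Set.range gam) := gam_closure ▸ Subgroup.mem_top x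
    induction hx using Subgroup.closure_induction with
    | mem y hy => obtain ⟨g, rfl⟩ := hy; rw [← map_mul, gam_sq, map_one]
    | one => simp
    | mul a b _ _ iha ihb => rw [map_mul, mul_mul_mul_comm, iha, ihb, one_mul]
    | inv a _ iha => rw [map_inv, ← mul_inv, iha, inv_one]
  have h3 : Abelianization.of (zeta c) ^ 3 = 1 := by
    rw [← map_pow, ← map_pow, show c ^ 3 = 1 by revert c; decide, map_one, map_one]
  have h4 := h2 (zeta c)
  rwa [pow_succ, pow_two, h4, one_mul] at h3

/-- A stem extension of the presented group with kernel of order three. -/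
theorem exists_stem : ∃ (Γ : Type) (_ : Group Γ) (_ : Finite Γ) (π : Γ →* ON7.Grp),
    Cfsg.IsStemExtension π ∧ IsCyclic π.ker ∧ Nat.card π.ker = 3 := by
  refine ⟨Gam, inferInstance, inferInstance, proj, ⟨proj_surjective, ?_, ker_proj_le_commutator⟩,
    isCyclic_of_prime_card (p := 3) card_ker_proj, card_ker_proj⟩
  rw [ker_proj]
  rintro _ ⟨c, rfl⟩
  exact Subgroup.mem_center_iff.mpr fun x => (commute_zeta x c).eq.symm

end Cfsg.Agent.H9.ON
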