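import Cfsg.Agent.H9.ON.RelAll
import Cfsg.Agent.H16.ON7H

/-!
The labelled coset table as permutations of pairs (point, integer modulo three).
-/

set_option autoImplicit false

namespace Cfsg.Agent.H9.ON

open Cfsg.Agent.H16 EnumData CoxEnum

theorem size_eq : ON7H.data.n = 122760 ∧ ON7H.data.ng = 7 := ⟨rfl, rfl⟩

/-- Pairs of a point and an integer modulo three. -/
abbrev Pt : Type := Fin ON7H.data.n × ZMod 3

/-- The relator words of the presentation. -/
def baseW : List (List Nat) :=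
  [[],
   [0,0], [1,1], [2,2], [3,3], [4,4], [5,5], [6,6],
   [1,0,1,0,1,0], [2,0,2,0], [3,0,3,0], [4,0,4,0], [5,0,5,0],
   [2,1,2,1,2,1], [3,1,3,1], [4,1,4,1], [5,1,5,1],
   [3,2,3,2,3,2,3,2,3,2,3,2,3,2,3,2], [4,2,4,2], [5,2,5,2],
   [4,3,4,3,4,3], [5,3,5,3], [5,4,5,4,5,4],
   [6,3,2,3,2,6,3,2,3,2,5,0],
   [2,3,2,3,2,3,2,3,5,0],
   [2,3,2,3,6,3,2,3,2,3,6,3,2,3,6,3,2,3,2,3,6,3,2,3],
   [2,3,2,3,6,3,2,3,6,2,3,2,6,3,2,3,6,3,2,3,2,3],
   [2,3,2,3,6,3,2,1,2,3,2,3,6,3,2,1,2,3,2,3,6,3,2,1,2,3,2,3,6,3,2,1,2,3,2,3,6,3,2,1],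
   [3,2,3,6,2,1,2,3,2,3,6,1,3,2,3,6,2,1,2,3,2,3,6],
   [3,2,3,2,3,6,3,4,2,3,2,3,6,4,3,2,3,2,3,6,3,4,2,3,2,3,6]]

/-- The constants of the relators. -/
def kOf (k : Nat) : Nat := if 27 ≤ k ∧ k < 30 then 1 else 0

theorem baseW_eq : ON7H.data.words.take ON7H.data.nbase = baseW := by decide +kernel

theorem relList_eq :
    relList = (List.range 30).map (fun k => ((baseW.getD k []).map arrOf, kOf k)) := rfl

/-- The label of an arrow. -/
noncomputable def lab (g i : Nat) : ZMod 3 :=
  if g < 7 then (((arrOf g).get 19 i % 4 : Nat) : ZMod 3) else 0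

theorem get_spec {i g : Nat} (hi : i < 122760) (hg : g < 7) :
    (arrOf g).get 19 i / 4 = ON7H.data.act i g ∧ (arrOf g).get 19 i % 4 < 3 := by
  have h := allFrom_spec (overTo i hi) g (Nat.zero_le g) (by omega)
  simp only [forceNat_eq, Bool.and_eq_true] at h
  exact ⟨Nat.eq_of_beq_eq_true h.1, Nat.le_of_ble_eq_true h.2⟩

/-- The coding of pairs by numbers. -/
noncomputable def enc (p : Pt) : Nat := 4 * (p.1 : Nat) + p.2.val

theorem enc_injective : Function.Injective enc := by
  rintro ⟨i, l⟩ ⟨j, m⟩ h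
  dsimp only [enc] at h
  have hl : l.val < 3 := l.val_lt
  have hm : m.val < 3 := m.val_lt
  obtain rfl : i = j := Fin.ext (by omega)
  obtain rfl : l = m := ZMod.val_injective 3 (by omega)
  rfl

/-- One step along a generator. -/
noncomputable def stp (g : Nat) (p : Pt) : Pt :=
  (ON7H.valid.perm g p.1, p.2 + lab g p.1)

theorem stepL_enc {g : Nat} (hg : g < 7) (p : Pt) : stepL (arrOf g) (enc p) = enc (stp g p) := by
  obtain ⟨⟨i, hi⟩, l⟩ := p
  have hl : l.val < 3 := l.val_lt
  have hd : enc ((⟨i, hi⟩, l) : Pt) / 4 = i := by simp only [enc]; omega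
  have hm : enc ((⟨i, hi⟩, l) : Pt) % 4 = l.val := by simp only [enc]; omega
  obtain ⟨h1, h2⟩ := get_spec (size_eq.1 ▸ hi) hg
  show forceNat ((arrOf g).get 19 (enc ((⟨i, hi⟩, l) : Pt) / 4)) (fun e =>
    e / 4 * 4 + (e % 4 + enc ((⟨i, hi⟩, l) : Pt) % 4) % 3) = _
  rw [forceNat_eq, hd, hm, h1]
  show ON7H.data.act i g * 4 + _ = 4 * ((ON7H.valid.perm g ⟨i, hi⟩ : Fin _) : Nat) + (l + lab g i).val
  have hp : ((ON7H.valid.perm g ⟨i, hi⟩ : Fin _) : Nat) = ON7H.data.act i g := by
    rw [Valid.perm, dif_pos (show g < ON7H.data.ng from hg)]; rfl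
  rw [hp, lab, if_pos hg, ZMod.val_add, ZMod.val_natCast, Nat.mod_eq_of_lt h2, Nat.mul_comm,
    Nat.add_comm l.val]

theorem runL_cons (a : PArr) (w : List PArr) (s : Nat) : runL (a :: w) s = runL w (stepL a s) :=
  forceNat_eq s fun s => runL w (stepL a s)

/-- A walk. -/
noncomputable def walk (w : List Nat) (p : Pt) : Pt := w.foldl (fun q g => stp g q) p

theorem runL_enc : ∀ (w : List Nat), (∀ g ∈ w, g < 7) → ∀ p,
    runL (w.map arrOf) (enc p) = enc (walk w p)
  | [], _, _ => rfl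
  | g :: w, h, p => by
    rw [List.map_cons, runL_cons, stepL_enc (h g (List.mem_cons_self ..)),
      runL_enc w fun x hx => h x (List.mem_cons_of_mem _ hx)]
    rfl

theorem relRowList_spec {s : Nat} : ∀ {l : List (List PArr × Nat)}, relRowList s l = true →
    ∀ p ∈ l, runL p.1 s = s + p.2
  | [], _, p, hp => by simp at hp
  | q :: l, h, p, hp => by
    change (Nat.beq (runL q.1 s) (Nat.add s q.2) && relRowList s l) = true at h
    rw [Bool.and_eq_true] at h
    rcases List.mem_cons.mp hp with rfl | hp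
    · exact Nat.eq_of_beq_eq_true h.1
    · exact relRowList_spec h.2 p hp

theorem baseW_lt : ∀ k, k < 30 → ∀ g ∈ baseW.getD k [], g < 7 := by decide +kernel

theorem kOf_lt (k : Nat) : kOf k < 3 := by unfold kOf; split <;> omega

theorem walk_shift : ∀ (w : List Nat) (i : Fin ON7H.data.n) (l c : ZMod 3),
    walk w (i, l + c) = ((walk w (i, l)).1, (walk w (i, l)).2 + c)
  | [], _, _, _ => rfl
  | g :: w, i, l, c => by
    show walk w (stp g (i, l + c)) = ((walk w (stp g (i, l))).1, (walk w (stp g (i, l))).2 + c)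
    simp only [stp]
    rw [add_right_comm]
    exact walk_shift w _ _ c

/-- A relator walk shifts by its constant. -/
theorem walk_rel {k : Nat} (hk : k < 30) (p : Pt) :
    walk (baseW.getD k []) p = (p.1, p.2 + (kOf k : ZMod 3)) := by
  obtain ⟨i, l⟩ := p
  have h := relTo23 i (size_eq.1 ▸ i.2)
  simp only [relRow, forceNat_eq, relList_eq] at h
  have h2 := relRowList_spec h _ (List.mem_map.mpr ⟨k, List.mem_range.mpr hk, rfl⟩)
  have e : (Nat.mul (i : Nat) 4) = enc ((i, 0) : Pt) := by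
    show (i : Nat) * 4 = 4 * (i : Nat) + (0 : ZMod 3).val
    rw [ZMod.val_zero]; omega
  simp only [e] at h2
  rw [runL_enc _ (baseW_lt k hk)] at h2
  have e2 : enc ((i, 0) : Pt) + kOf k = enc ((i, (kOf k : ZMod 3)) : Pt) := by
    simp only [enc, ZMod.val_zero, ZMod.val_natCast, Nat.mod_eq_of_lt (kOf_lt k)]; omega
  have h3 := enc_injective (h2.trans e2)
  have h4 := walk_shift (baseW.getD k []) i 0 l
  rw [zero_add, h3] at h4
  rw [h4, add_comm]

theorem stp_involutive (g : Nat) : Function.Involutive (stp g) := by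
  intro p
  by_cases hg : g < 7
  · have e : baseW.getD (g + 1) [] = [g, g] ∧ kOf (g + 1) = 0 := by
      revert g; decide +kernel
    have h := walk_rel (k := g + 1) (by omega) p
    rw [e.1, e.2, Nat.cast_zero, add_zero] at h
    exact h
  · show stp g (stp g p) = p
    simp only [stp, Valid.perm, lab, if_neg hg, dif_neg (show ¬ g < ON7H.data.ng from hg), add_zero,
      Equiv.Perm.one_apply]

/-- The lifted generators. -/
noncomputable def tau (g : Nat) : Equiv.Perm Pt := (stp_involutive g).toPerm _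

theorem tau_sq (g : Nat) : tau g * tau g = 1 := Equiv.ext fun p => stp_involutive g p

theorem tau_outside {g : Nat} (hg : 7 ≤ g) : tau g = 1 := Equiv.ext fun p => by
  show stp g p = p
  simp only [stp, Valid.perm, lab, if_neg (show ¬ g < 7 by omega),
    dif_neg (show ¬ g < ON7H.data.ng by have := size_eq.2; omega), add_zero, Equiv.Perm.one_apply]

theorem ev_tau_apply : ∀ (w : List Nat) (p : Pt), ev tau w p = walk w p
  | [], _ => rfl
  | g :: w, p => by
    rw [ev, Equiv.Perm.mul_apply, ev_tau_apply w]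
    rfl

/-- The shifts. -/
noncomputable def sft : Multiplicative (ZMod 3) →* Equiv.Perm Pt where
  toFun c := Equiv.prodCongr (Equiv.refl _) (Equiv.addRight (Multiplicative.toAdd c))
  map_one' := Equiv.ext fun p => by simp
  map_mul' a b := Equiv.ext fun p => by
    obtain ⟨i, l⟩ := p
    show (i, l + Multiplicative.toAdd (a * b)) = (i, l + Multiplicative.toAdd b + Multiplicative.toAdd a)
    rw [toAdd_mul, add_comm (Multiplicative.toAdd a), add_assoc]

theorem sft_apply (c : Multiplicative (ZMod 3)) (p : Pt) :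
    sft c p = (p.1, p.2 + Multiplicative.toAdd c) := rfl

theorem ev_tau_base {k : Nat} (hk : k < 30) :
    ev tau (baseW.getD k []) = sft (Multiplicative.ofAdd (kOf k : ZMod 3)) :=
  Equiv.ext fun p => (ev_tau_apply _ p).trans (walk_rel hk p)

theorem sft_injective : Function.Injective sft := fun a b h => by
  have h1 := congrArg (fun e : Equiv.Perm Pt => (e (⟨0, ON7H.valid.pos⟩, 0)).2) h
  simpa [sft_apply] using h1

theorem tau_sft (g : Nat) (c : Multiplicative (ZMod 3)) : Commute (sft c) (tau g) :=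
  Equiv.ext fun p => by
    show ((stp g p).1, (stp g p).2 + Multiplicative.toAdd c) = stp g (p.1, p.2 + Multiplicative.toAdd c)
    simp only [stp]
    rw [add_right_comm]

end Cfsg.Agent.H9.ON
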