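import Cfsg.Agent.H9.ON.SylData
import Cfsg.Agent.H16.ON7HData

/-! The checks of the certificate at 2 for the O'Nan group. -/

set_option autoImplicit false
set_option maxRecDepth 100000
set_option Elab.async false

namespace Cfsg.Agent.H9.ON

open Cfsg.Agent.H16 Cfsg.Agent.H13.SylMult

theorem pc2_ok : pc2.ok cert2 = true := by decide +kernel

theorem rows2_ok : cert2.rowsOk pc2 = true := by decide +kernel

theorem combos2_ok : cert2.combosOk pc2 = true := by decide +kernel

theorem words2_ok : words2.ok ON7H.data pc2 cert2 = true := by decide +kernel

end Cfsg.Agent.H9.ON
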