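import Cfsg.Agent.H9.ON.SylData
import Cfsg.Agent.H16.ON7HData

/-! The checks of the certificate at 7 for the O'Nan group. -/

set_option autoImplicit false
set_option maxRecDepth 100000
set_option Elab.async false

namespace Cfsg.Agent.H9.ON

open Cfsg.Agent.H16 Cfsg.Agent.H13.SylMult

theorem pc7_ok : pc7.ok cert7 = true := by decide +kernel

theorem rows7_ok : cert7.rowsOk pc7 = true := by decide +kernel

theorem combos7_ok : cert7.combosOk pc7 = true := by decide +kernel

theorem words7_ok : words7.ok ON7H.data pc7 cert7 = true := by decide +kernel

end Cfsg.Agent.H9.ON
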