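import Cfsg.Agent.H13.SylMult.Bound
import Cfsg.Agent.H16.CosetBasePow

/-!
The facts about a Sylow subgroup and conjugations in an enumerated group, checked on words at the
base points of a faithful action.
-/

set_option autoImplicit false

namespace Cfsg.Agent.H9.ON

open Cfsg.Agent.H16 Cfsg.Agent.H16.EnumData Cfsg.Agent.H13.SylMult

/-- The words of the letters and of the conjugating elements, and the base points. -/
structure WordData where
  /-- the letters -/
  letters : List (List Nat)
  /-- the conjugating elements -/
  conjs : List (List Nat)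
  /-- the base points -/
  bases : List Nat

variable (T : EnumData) (R : WordData) (D : Pc) (C : Cert)

/-- A letter as a word. -/
noncomputable def WordData.letter (a : Nat) : List Nat := R.letters.getD a []

/-- A product of letters as a word. -/
noncomputable def WordData.word : List Nat → List Nat
  | [] => []
  | a :: w => WordData.word w ++ R.letter a

/-- Two words agree on the base points. -/
noncomputable def WordData.sameW (u v : List Nat) : Bool :=
  R.bases.all fun b => Nat.beq (T.run u b) (T.run v b)

/-- Iterated image. -/
noncomputable def iterRun (w : List Nat) : Nat → Nat → Nat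
  | 0, x => x
  | k + 1, x => forceNat (iterRun w k x) fun y => T.run w y

/-- The images of the base under the elements of the last `j` letters. -/
noncomputable def WordData.keys : Nat → List (List Nat)
  | 0 => [R.bases]
  | j + 1 => (List.range D.p).flatMap fun k =>
      (WordData.keys j).map fun K => K.map (iterRun T (R.letter (D.n - (j + 1))) k)

/-- The relations hold. -/
noncomputable def WordData.relsOk : Bool :=
  (List.range D.n).all fun a =>
    ((List.range a).all fun b =>
        R.sameW T (R.word [a, b]) (R.word (b :: a :: D.tail a b))) &&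
      R.sameW T (R.word (List.replicate D.p a)) (R.word (D.tail a a))

/-- The letters are independent. -/
noncomputable def WordData.sepOk : Bool :=
  (List.range D.n).all fun i =>
    (R.keys T D (D.n - (i + 1))).all fun K => !natListEq (R.bases.map (T.run (R.letter i))) K

/-- One conjugation fact. -/
noncomputable def WordData.conjOk : Eqn → Bool
  | .assoc _ _ => true
  | .fus g l l' _ => (List.range l.length).all fun i =>
      R.sameW T (R.word (l.getD i []) ++ R.conjs.getD g []) (R.conjs.getD g [] ++ R.word (l'.getD i []))

/-- All the facts. -/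
noncomputable def WordData.ok : Bool :=
  R.relsOk T D && R.sepOk T D && C.eqns.all (R.conjOk T) &&
    R.letters.all (fun w => w.all fun g => Nat.ble (Nat.succ g) T.ng) &&
    R.conjs.all (fun w => w.all fun g => Nat.ble (Nat.succ g) T.ng) &&
    R.bases.all (fun b => Nat.ble (Nat.succ b) T.n)

variable {T R D C}

theorem run_append : ∀ (u v : List Nat) (i : Nat), T.run (u ++ v) i = T.run v (T.run u i)
  | [], _, _ => rfl
  | g :: u, v, i => by rw [List.cons_append, run_cons, run_cons, run_append u v]

theorem iterRun_succ (w : List Nat) (k x : Nat) :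
    iterRun T w (k + 1) x = T.run w (iterRun T w k x) := forceNat_eq _ _

variable {G : Type} [Group G] {s : Nat → G} {hV : T.Valid} {H : Subgroup G}

theorem ev_word : ∀ w : List Nat, ev s (R.word w) = wval (fun a => ev s (R.letter a)) w
  | [] => rfl
  | a :: w => by rw [WordData.word, ev_append, wval_cons, ev_word w]

theorem word_lt {n : Nat} (h : ∀ a, ∀ g ∈ R.letter a, g < n) :
    ∀ w : List Nat, ∀ g ∈ R.word w, g < n
  | [] => fun g hg => by simp [WordData.word] at hg
  | a :: w => fun g hg => by
    rw [WordData.word] at hg
    rcases List.mem_append.mp hg with hg | hg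
    · exact word_lt h w g hg
    · exact h a g hg

/-- Words agreeing on the base have equal values. -/
theorem eq_of_base (M : T.Model s hV H) (hinj : Function.Injective M.rho) [Finite G]
    {ls : List BaseLevel} {N : Nat} (h : T.checkLevels ls [] = true) (hprod : levelsProd ls = N)
    (hcard : Nat.card G = N) {u v : List Nat} (hu : ∀ g ∈ u, g < T.ng) (hv : ∀ g ∈ v, g < T.ng)
    (heq : ∀ b ∈ allFixed ls [], T.run u b = T.run v b) : ev s u = ev s v := by
  have hr : Nat.card M.rho.range = N := by
    rw [← hcard]
    exact (Nat.card_congr (MonoidHom.ofInjective hinj).toEquiv).symm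
  have h0 : Nat.card (M.fixer []) ≤ Nat.card M.rho.range :=
    Nat.card_le_card_of_injective (fun x => ⟨x.1, x.2.1⟩) fun x y hxy => by
      have h2 := congrArg Subtype.val hxy
      exact Subtype.ext h2
  have h1 := M.levelsProd_mul_le ls [] h
  have hNpos : 0 < N := hcard ▸ Nat.card_pos
  have hone : Nat.card (M.fixer (allFixed ls [])) ≤ 1 := by
    rw [hprod] at h1
    exact Nat.le_of_mul_le_mul_left (by omega) hNpos
  have : Subsingleton (M.fixer (allFixed ls [])) := Finite.card_le_one_iff_subsingleton.mp hone
  have hmem : M.rho ((ev s v)⁻¹ * ev s u) ∈ M.fixer (allFixed ls []) := by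
    refine ⟨⟨_, rfl⟩, fun i hi => ?_⟩
    rw [map_mul, map_inv, Equiv.Perm.mul_apply, Equiv.Perm.inv_eq_iff_eq, M.rho_ev, M.rho_ev]
    exact Fin.ext (by rw [hV.perm_word _ hu, hV.perm_word _ hv]; exact heq i hi)
  have h2 : M.rho ((ev s v)⁻¹ * ev s u) = M.rho 1 := by
    rw [map_one]
    exact congrArg Subtype.val (Subsingleton.elim (⟨_, hmem⟩ : M.fixer (allFixed ls [])) 1)
  exact (inv_mul_eq_one.mp (hinj h2)).symm

/-- The group facts from the word checks. -/
theorem groupFacts (M : T.Model s hV H) (hinj : Function.Injective M.rho) [Finite G]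
    {ls : List BaseLevel} {N : Nat} (hls : T.checkLevels ls [] = true) (hprod : levelsProd ls = N)
    (hcard : Nat.card G = N) (hbases : R.bases = allFixed ls []) (h : R.ok T D C = true)
    (hp : D.p.Prime) (hok : D.ok C = true) (hrows : C.rowsOk D = true) :
    GroupFacts D C (fun a => ev s (R.letter a)) (fun g => ev s (R.conjs.getD g [])) := by
  classical
  simp only [WordData.ok, Bool.and_eq_true, List.all_eq_true] at h
  obtain ⟨⟨⟨⟨⟨hrel, hsep⟩, hconj⟩, hlet⟩, hcj⟩, hbase⟩ := h
  obtain ⟨-, -, -, hswap, hpow⟩ := ok_spec hok
  have hL : ∀ a, ∀ g ∈ R.letter a, g < T.ng := fun a g hg => by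
    rw [WordData.letter] at hg
    by_cases ha : a < R.letters.length
    · rw [List.getD_eq_getElem _ _ ha] at hg
      exact Nat.le_of_ble_eq_true (hlet _ (List.getElem_mem ha) g hg)
    · rw [List.getD_eq_default _ _ (Nat.le_of_not_lt ha)] at hg
      simp at hg
  have hF : ∀ a, ∀ g ∈ R.conjs.getD a [], g < T.ng := fun a g hg => by
    by_cases ha : a < R.conjs.length
    · rw [List.getD_eq_getElem _ _ ha] at hg
      exact Nat.le_of_ble_eq_true (hcj _ (List.getElem_mem ha) g hg)
    · rw [List.getD_eq_default _ _ (Nat.le_of_not_lt ha)] at hg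
      simp at hg
  have hsame : ∀ u v : List Nat, (∀ g ∈ u, g < T.ng) → (∀ g ∈ v, g < T.ng) →
      R.sameW T u v = true → ev s u = ev s v := fun u v hu hv he =>
    eq_of_base M hinj hls hprod hcard hu hv fun b hb => by
      rw [← hbases] at hb
      exact Nat.eq_of_beq_eq_true (List.all_eq_true.mp he b hb)
  set E : Nat → G := fun a => ev s (R.letter a) with hE
  simp only [WordData.relsOk, List.all_eq_true, List.mem_range, Bool.and_eq_true] at hrel
  have hsw : ∀ a b, a < D.n → b < a → E a * E b = E b * (E a * wval E (D.tail a b)) := by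
    intro a b ha hb
    have h2 := hsame _ _ (word_lt hL _) (word_lt hL _) ((hrel a ha).1 b hb)
    rw [ev_word, ev_word] at h2
    simpa [wval_cons, wval_nil] using h2
  have hpw : ∀ a, a < D.n → E a ^ D.p = wval E (D.tail a a) := by
    intro a ha
    have h2 := hsame _ _ (word_lt hL _) (word_lt hL _) (hrel a ha).2
    rw [ev_word, ev_word, wval_replicate] at h2
    exact h2
  refine ⟨hsw, hpw, ?_, ?_⟩
  · have hrels : Rels D E (⊥ : Subgroup G) 0 := by
      refine ⟨bot_le, fun a b ha hb => ⟨1, one_mem _, ?_⟩, fun a ha _ => ⟨1, one_mem _, ?_⟩,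
        fun a b ha hb x hx => ⟨((hswap a b ha hb).1 x hx).1, ((hswap a b ha hb).1 x hx).2.1⟩,
        fun a ha x hx => (hpow a ha).1 x hx⟩
      · simpa using hsw a b ha hb
      · rw [hpw a ha, mul_one]
    have happ : ∀ (y : G) (x : Fin T.n) (w : List Nat), (∀ g ∈ w, g < T.ng) → ev s w = y →
        ((M.rho y x : Fin T.n) : Nat) = T.run w x := fun y x w hw e => by
      rw [← e, M.rho_ev, hV.perm_word _ hw]
    have hiter : ∀ (a k : Nat) (x : Fin T.n),
        ((M.rho (E a ^ k) x : Fin T.n) : Nat) = iterRun T (R.letter a) k x := by
      intro a k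
      induction k with
      | zero => intro x; rw [pow_zero, map_one]; rfl
      | succ k ih =>
        intro x
        rw [pow_succ', map_mul, Equiv.Perm.mul_apply, happ (E a) _ _ (hL a) rfl, ih, iterRun_succ]
    have hkeys : ∀ j, j ≤ D.n → ∀ y ∈ seg D.n E (⊥ : Subgroup G) (D.n - j),
        ∀ f : Nat → Nat, (∀ x : Fin T.n, f x = ((M.rho y x : Fin T.n) : Nat)) →
        R.bases.map f ∈ R.keys T D j := by
      intro j
      induction j with
      | zero =>
        intro _ y hy f hf
        rw [Nat.sub_zero, seg_top le_rfl, Subgroup.mem_bot] at hy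
        subst hy
        simp only [WordData.keys, List.mem_singleton]
        conv_rhs => rw [← List.map_id R.bases]
        refine List.map_congr_left fun b hb => ?_
        have := hf ⟨b, Nat.le_of_ble_eq_true (hbase b hb)⟩
        simpa using this
      | succ j ih =>
        intro hj y hy f hf
        set i := D.n - (j + 1) with hi
        have hin : i < D.n := by omega
        have hsucc : i + 1 = D.n - j := by omega
        rw [seg_eq hin] at hy
        obtain ⟨k, hk, z, hz, rfl⟩ :=
          exists_form hp.pos (mem_normalizer_seg hrels hin) (pow_mem_seg hrels hin (Nat.zero_le _)) hy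
        rw [hsucc] at hz
        let g : Nat → Nat := fun x => if hx : x < T.n then ((M.rho z ⟨x, hx⟩ : Fin T.n) : Nat) else 0
        have hg : ∀ x : Fin T.n, g x = ((M.rho z x : Fin T.n) : Nat) := fun x => by simp [g]
        have hK := ih (by omega) z hz g hg
        simp only [WordData.keys, List.mem_flatMap, List.mem_range, List.mem_map]
        refine ⟨k, hk, R.bases.map g, hK, ?_⟩
        rw [List.map_map]
        refine List.map_congr_left fun b hb => ?_
        have hb' : b < T.n := Nat.le_of_ble_eq_true (hbase b hb)
        have e1 := hf ⟨b, hb'⟩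
        simp only [Function.comp_apply]
        rw [show f b = _ from e1, show g b = _ from hg ⟨b, hb'⟩, ← hi, ← hiter]
        rw [map_mul, Equiv.Perm.mul_apply]
    intro i hi hmem
    rw [show i + 1 = D.n - (D.n - (i + 1)) by omega] at hmem
    have h1 := hkeys _ (by omega) (E i) hmem (T.run (R.letter i))
      fun x => (happ (E i) x _ (hL i) rfl).symm
    simp only [WordData.sepOk, List.all_eq_true, List.mem_range] at hsep
    have h2 := hsep i hi _ h1
    have href : ∀ l : List Nat, natListEq l l = true := by
      intro l
      induction l with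
      | nil => rfl
      | cons x l ih =>
        show (Nat.beq x x && natListEq l l) = true
        rw [ih, Nat.beq_refl]; rfl
    rw [href] at h2
    exact Bool.noConfusion h2
  · intro g l l' π hq i hi
    have h2 := hconj _ hq
    simp only [WordData.conjOk, List.all_eq_true, List.mem_range] at h2
    have hu : ∀ u v : List Nat, (∀ g ∈ u, g < T.ng) → (∀ g ∈ v, g < T.ng) → ∀ g ∈ u ++ v, g < T.ng :=
      fun u v h1 h2 g hg => (List.mem_append.mp hg).elim (h1 g) (h2 g)
    have h3 := hsame _ _ (hu _ _ (word_lt hL _) (hF g)) (hu _ _ (hF g) (word_lt hL _)) (h2 i hi)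
    rw [ev_append, ev_append, ev_word, ev_word] at h3
    exact h3

end Cfsg.Agent.H9.ON
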