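import Cfsg.Agent.H9.ON.Cover
import Cfsg.Agent.H9.ON.WordFacts
import Cfsg.Agent.H9.ON.SylChecks2
import Cfsg.Agent.H9.ON.SylChecks3
import Cfsg.Agent.H9.ON.SylChecks7
import Cfsg.Agent.H13.SylMult.Mult
import Cfsg.Agent.H16.ON7Order

/-!
The Schur multiplier of the O'Nan group is cyclic of order three.
-/

set_option autoImplicit false

namespace Cfsg.Agent.H9.ON

open Cfsg.Agent.H16 Cfsg.Agent.H13.SylMult EnumData

theorem bases_eq : words2.bases = allFixed ON7H.base [] ∧ words3.bases = allFixed ON7H.base [] ∧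
    words7.bases = allFixed ON7H.base [] := by decide +kernel

theorem card_ker_dvd_three (Δ : Type) [Group Δ] [Finite Δ] (τ : Δ →* ON7.Grp)
    (hτ : Cfsg.IsStemExtension τ) : Nat.card τ.ker ∣ 3 := by
  have hcard := ON7Order.card_and_faithful.1
  have hinj := ON7Order.card_and_faithful.2
  have h2 := groupFacts (R := words2) (D := pc2) (C := cert2) ON7H.theModel hinj ON7H.base_ok
    ON7H.base_prod hcard bases_eq.1 words2_ok (show Nat.Prime 2 by norm_num) pc2_ok rows2_ok
  have h3 := groupFacts (R := words3) (D := pc3) (C := cert3) ON7H.theModel hinj ON7H.base_ok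
    ON7H.base_prod hcard bases_eq.2.1 words3_ok (show Nat.Prime 3 by norm_num) pc3_ok rows3_ok
  have h7 := groupFacts (R := words7) (D := pc7) (C := cert7) ON7H.theModel hinj ON7H.base_ok
    ON7H.base_prod hcard bases_eq.2.2 words7_ok (show Nat.Prime 7 by norm_num) pc7_ok rows7_ok
  have b2 := factorization_ker_le hτ (show Nat.Prime 2 by norm_num) pc2_ok rows2_ok combos2_ok h2
    (factorization_eq (a := 9) (b := 900030285) (by norm_num : Nat.Prime 2) (by rw [hcard]; rfl)
      (show ¬ (2 : ℕ) ∣ 900030285 by norm_num))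
  have b3 := factorization_ker_le hτ (show Nat.Prime 3 by norm_num) pc3_ok rows3_ok combos3_ok h3
    (factorization_eq (a := 4) (b := 5689080320) (by norm_num : Nat.Prime 3) (by rw [hcard]; rfl)
      (show ¬ (3 : ℕ) ∣ 5689080320 by norm_num))
  have b7 := factorization_ker_le hτ (show Nat.Prime 7 by norm_num) pc7_ok rows7_ok combos7_ok h7
    (factorization_eq (a := 3) (b := 1343485440) (by norm_num : Nat.Prime 7) (by rw [hcard]; rfl)
      (show ¬ (7 : ℕ) ∣ 1343485440 by norm_num))
  refine card_ker_dvd hτ (by norm_num) [2, 3, 7] (fun p hp => ?_) (fun p hp hn => ?_)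
  · simp only [List.mem_cons, List.not_mem_nil, or_false] at hp
    rcases hp with rfl | rfl | rfl
    · exact b2.trans (Nat.zero_le _)
    · rw [Nat.prime_three.factorization_self]
      exact b3
    · exact b7.trans (Nat.zero_le _)
  · rw [hcard]
    simp only [List.mem_cons, List.not_mem_nil, or_false, not_or] at hn
    by_contra hlt
    have hd : p ^ 2 ∣ 2 ^ 9 * (3 ^ 4 * (7 ^ 3 * (5 * (11 * (19 * 31))))) := by
      refine (pow_dvd_pow p (by omega : 2 ≤ (460815505920 : ℕ).factorization p)).trans ?_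
      norm_num
      exact Nat.ordProj_dvd 460815505920 p
    have cop : ∀ q k, q.Prime → p ≠ q → Nat.Coprime (p ^ 2) (q ^ k) := fun q k hq hne =>
      Nat.Coprime.pow 2 k ((Nat.coprime_primes hp hq).2 hne)
    have h4 := (cop 7 3 (by norm_num) hn.2.2).dvd_of_dvd_mul_left
      ((cop 3 4 Nat.prime_three hn.2.1).dvd_of_dvd_mul_left
        ((cop 2 9 Nat.prime_two hn.1).dvd_of_dvd_mul_left hd))
    have h1 := (dvd_pow_self p two_ne_zero).trans h4
    rcases (Nat.Prime.dvd_mul hp).1 h1 with h | h
    · rw [(Nat.prime_dvd_prime_iff_eq hp (by norm_num)).1 h] at h4; norm_num at h4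
    rcases (Nat.Prime.dvd_mul hp).1 h with h | h
    · rw [(Nat.prime_dvd_prime_iff_eq hp (by norm_num)).1 h] at h4; norm_num at h4
    rcases (Nat.Prime.dvd_mul hp).1 h with h | h
    · rw [(Nat.prime_dvd_prime_iff_eq hp (by norm_num)).1 h] at h4; norm_num at h4
    · rw [(Nat.prime_dvd_prime_iff_eq hp (by norm_num)).1 h] at h4; norm_num at h4

theorem hasMultiplier : Cfsg.HasCyclicSchurMultiplier Cfsg.Spor.ON 3 :=
  hasCyclic_of_bound ON7.equiv (fun Δ _ _ τ hτ => card_ker_dvd_three Δ τ hτ) (by norm_num) exists_stem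

end Cfsg.Agent.H9.ON
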