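import Cfsg.Agent.H9.ON.CoverCheck
import Cfsg.Agent.H16.ON7HData

/-! The check that the labelled arrays lie over the coset table. -/

set_option autoImplicit false

namespace Cfsg.Agent.H9.ON

open Cfsg.Agent.H16

/-- The check at a point. -/
noncomputable def overRow (i : Nat) : Bool :=
  allFrom (fun g => forceNat ((arrOf g).get 19 i) fun e =>
    Nat.beq (Nat.div e 4) (ON7H.data.act i g) && Nat.ble (Nat.succ (Nat.mod e 4)) 3) 7 0

end Cfsg.Agent.H9.ON
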