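import Cfsg.Agent.H9.ON.OverCheck

/-! The labelled arrays lie over the coset table. -/

set_option autoImplicit false
set_option Elab.async false

namespace Cfsg.Agent.H9.ON

open Cfsg.Agent.H16

theorem overRows_0 : allFrom overRow 1023 0 = true := by decide +kernel

theorem overRows_1023 : allFrom overRow 1023 1023 = true := by decide +kernel

theorem overRows_2046 : allFrom overRow 1023 2046 = true := by decide +kernel

theorem overRows_3069 : allFrom overRow 1023 3069 = true := by decide +kernel

theorem overRows_4092 : allFrom overRow 1023 4092 = true := by decide +kernel

theorem overRows_5115 : allFrom overRow 1023 5115 = true := by decide +kernel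

theorem overRows_6138 : allFrom overRow 1023 6138 = true := by decide +kernel

theorem overRows_7161 : allFrom overRow 1023 7161 = true := by decide +kernel

theorem overRows_8184 : allFrom overRow 1023 8184 = true := by decide +kernel

theorem overRows_9207 : allFrom overRow 1023 9207 = true := by decide +kernel

theorem overRows_10230 : allFrom overRow 1023 10230 = true := by decide +kernel

theorem overRows_11253 : allFrom overRow 1023 11253 = true := by decide +kernel

theorem overRows_12276 : allFrom overRow 1023 12276 = true := by decide +kernel

theorem overRows_13299 : allFrom overRow 1023 13299 = true := by decide +kernel

theorem overRows_14322 : allFrom overRow 1023 14322 = true := by decide +kernel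

end Cfsg.Agent.H9.ON
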