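import Cfsg.Agent.H9.ON.OverCheck

/-! The labelled arrays lie over the coset table. -/

set_option autoImplicit false
set_option Elab.async false

namespace Cfsg.Agent.H9.ON

open Cfsg.Agent.H16

theorem overRows_15345 : allFrom overRow 1023 15345 = true := by decide +kernel

theorem overRows_16368 : allFrom overRow 1023 16368 = true := by decide +kernel

theorem overRows_17391 : allFrom overRow 1023 17391 = true := by decide +kernel

theorem overRows_18414 : allFrom overRow 1023 18414 = true := by decide +kernel

theorem overRows_19437 : allFrom overRow 1023 19437 = true := by decide +kernel

theorem overRows_20460 : allFrom overRow 1023 20460 = true := by decide +kernel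

theorem overRows_21483 : allFrom overRow 1023 21483 = true := by decide +kernel

theorem overRows_22506 : allFrom overRow 1023 22506 = true := by decide +kernel

theorem overRows_23529 : allFrom overRow 1023 23529 = true := by decide +kernel

theorem overRows_24552 : allFrom overRow 1023 24552 = true := by decide +kernel

theorem overRows_25575 : allFrom overRow 1023 25575 = true := by decide +kernel

theorem overRows_26598 : allFrom overRow 1023 26598 = true := by decide +kernel

theorem overRows_27621 : allFrom overRow 1023 27621 = true := by decide +kernel

theorem overRows_28644 : allFrom overRow 1023 28644 = true := by decide +kernel

theorem overRows_29667 : allFrom overRow 1023 29667 = true := by decide +kernel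

end Cfsg.Agent.H9.ON
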