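import Cfsg.Agent.H9.ON.OverCheck

/-! The labelled arrays lie over the coset table. -/

set_option autoImplicit false
set_option Elab.async false

namespace Cfsg.Agent.H9.ON

open Cfsg.Agent.H16

theorem overRows_30690 : allFrom overRow 1023 30690 = true := by decide +kernel

theorem overRows_31713 : allFrom overRow 1023 31713 = true := by decide +kernel

theorem overRows_32736 : allFrom overRow 1023 32736 = true := by decide +kernel

theorem overRows_33759 : allFrom overRow 1023 33759 = true := by decide +kernel

theorem overRows_34782 : allFrom overRow 1023 34782 = true := by decide +kernel

theorem overRows_35805 : allFrom overRow 1023 35805 = true := by decide +kernel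

theorem overRows_36828 : allFrom overRow 1023 36828 = true := by decide +kernel

theorem overRows_37851 : allFrom overRow 1023 37851 = true := by decide +kernel

theorem overRows_38874 : allFrom overRow 1023 38874 = true := by decide +kernel

theorem overRows_39897 : allFrom overRow 1023 39897 = true := by decide +kernel

theorem overRows_40920 : allFrom overRow 1023 40920 = true := by decide +kernel

theorem overRows_41943 : allFrom overRow 1023 41943 = true := by decide +kernel

theorem overRows_42966 : allFrom overRow 1023 42966 = true := by decide +kernel

theorem overRows_43989 : allFrom overRow 1023 43989 = true := by decide +kernel

theorem overRows_45012 : allFrom overRow 1023 45012 = true := by decide +kernel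

end Cfsg.Agent.H9.ON
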