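import Cfsg.Agent.H9.ON.OverCheck

/-! The labelled arrays lie over the coset table. -/

set_option autoImplicit false
set_option Elab.async false

namespace Cfsg.Agent.H9.ON

open Cfsg.Agent.H16

theorem overRows_46035 : allFrom overRow 1023 46035 = true := by decide +kernel

theorem overRows_47058 : allFrom overRow 1023 47058 = true := by decide +kernel

theorem overRows_48081 : allFrom overRow 1023 48081 = true := by decide +kernel

theorem overRows_49104 : allFrom overRow 1023 49104 = true := by decide +kernel

theorem overRows_50127 : allFrom overRow 1023 50127 = true := by decide +kernel

theorem overRows_51150 : allFrom overRow 1023 51150 = true := by decide +kernel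

theorem overRows_52173 : allFrom overRow 1023 52173 = true := by decide +kernel

theorem overRows_53196 : allFrom overRow 1023 53196 = true := by decide +kernel

theorem overRows_54219 : allFrom overRow 1023 54219 = true := by decide +kernel

theorem overRows_55242 : allFrom overRow 1023 55242 = true := by decide +kernel

theorem overRows_56265 : allFrom overRow 1023 56265 = true := by decide +kernel

theorem overRows_57288 : allFrom overRow 1023 57288 = true := by decide +kernel

theorem overRows_58311 : allFrom overRow 1023 58311 = true := by decide +kernel

theorem overRows_59334 : allFrom overRow 1023 59334 = true := by decide +kernel

theorem overRows_60357 : allFrom overRow 1023 60357 = true := by decide +kernel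

end Cfsg.Agent.H9.ON
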