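import Cfsg.Agent.H9.ON.OverCheck

/-! The labelled arrays lie over the coset table. -/

set_option autoImplicit false
set_option Elab.async false

namespace Cfsg.Agent.H9.ON

open Cfsg.Agent.H16

theorem overRows_61380 : allFrom overRow 1023 61380 = true := by decide +kernel

theorem overRows_62403 : allFrom overRow 1023 62403 = true := by decide +kernel

theorem overRows_63426 : allFrom overRow 1023 63426 = true := by decide +kernel

theorem overRows_64449 : allFrom overRow 1023 64449 = true := by decide +kernel

theorem overRows_65472 : allFrom overRow 1023 65472 = true := by decide +kernel

theorem overRows_66495 : allFrom overRow 1023 66495 = true := by decide +kernel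

theorem overRows_67518 : allFrom overRow 1023 67518 = true := by decide +kernel

theorem overRows_68541 : allFrom overRow 1023 68541 = true := by decide +kernel

theorem overRows_69564 : allFrom overRow 1023 69564 = true := by decide +kernel

theorem overRows_70587 : allFrom overRow 1023 70587 = true := by decide +kernel

theorem overRows_71610 : allFrom overRow 1023 71610 = true := by decide +kernel

theorem overRows_72633 : allFrom overRow 1023 72633 = true := by decide +kernel

theorem overRows_73656 : allFrom overRow 1023 73656 = true := by decide +kernel

theorem overRows_74679 : allFrom overRow 1023 74679 = true := by decide +kernel

theorem overRows_75702 : allFrom overRow 1023 75702 = true := by decide +kernel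

end Cfsg.Agent.H9.ON
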