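import Cfsg.Agent.H9.ON.OverCheck

/-! The labelled arrays lie over the coset table. -/

set_option autoImplicit false
set_option Elab.async false

namespace Cfsg.Agent.H9.ON

open Cfsg.Agent.H16

theorem overRows_76725 : allFrom overRow 1023 76725 = true := by decide +kernel

theorem overRows_77748 : allFrom overRow 1023 77748 = true := by decide +kernel

theorem overRows_78771 : allFrom overRow 1023 78771 = true := by decide +kernel

theorem overRows_79794 : allFrom overRow 1023 79794 = true := by decide +kernel

theorem overRows_80817 : allFrom overRow 1023 80817 = true := by decide +kernel

theorem overRows_81840 : allFrom overRow 1023 81840 = true := by decide +kernel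

theorem overRows_82863 : allFrom overRow 1023 82863 = true := by decide +kernel

theorem overRows_83886 : allFrom overRow 1023 83886 = true := by decide +kernel

theorem overRows_84909 : allFrom overRow 1023 84909 = true := by decide +kernel

theorem overRows_85932 : allFrom overRow 1023 85932 = true := by decide +kernel

theorem overRows_86955 : allFrom overRow 1023 86955 = true := by decide +kernel

theorem overRows_87978 : allFrom overRow 1023 87978 = true := by decide +kernel

theorem overRows_89001 : allFrom overRow 1023 89001 = true := by decide +kernel

theorem overRows_90024 : allFrom overRow 1023 90024 = true := by decide +kernel

theorem overRows_91047 : allFrom overRow 1023 91047 = true := by decide +kernel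

end Cfsg.Agent.H9.ON
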