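import Cfsg.Agent.H9.ON.OverCheck

/-! The labelled arrays lie over the coset table. -/

set_option autoImplicit false
set_option Elab.async false

namespace Cfsg.Agent.H9.ON

open Cfsg.Agent.H16

theorem overRows_92070 : allFrom overRow 1023 92070 = true := by decide +kernel

theorem overRows_93093 : allFrom overRow 1023 93093 = true := by decide +kernel

theorem overRows_94116 : allFrom overRow 1023 94116 = true := by decide +kernel

theorem overRows_95139 : allFrom overRow 1023 95139 = true := by decide +kernel

theorem overRows_96162 : allFrom overRow 1023 96162 = true := by decide +kernel

theorem overRows_97185 : allFrom overRow 1023 97185 = true := by decide +kernel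

theorem overRows_98208 : allFrom overRow 1023 98208 = true := by decide +kernel

theorem overRows_99231 : allFrom overRow 1023 99231 = true := by decide +kernel

theorem overRows_100254 : allFrom overRow 1023 100254 = true := by decide +kernel

theorem overRows_101277 : allFrom overRow 1023 101277 = true := by decide +kernel

theorem overRows_102300 : allFrom overRow 1023 102300 = true := by decide +kernel

theorem overRows_103323 : allFrom overRow 1023 103323 = true := by decide +kernel

theorem overRows_104346 : allFrom overRow 1023 104346 = true := by decide +kernel

theorem overRows_105369 : allFrom overRow 1023 105369 = true := by decide +kernel

theorem overRows_106392 : allFrom overRow 1023 106392 = true := by decide +kernel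

end Cfsg.Agent.H9.ON
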