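import Cfsg.Agent.H9.ON.OverCheck

/-! The labelled arrays lie over the coset table. -/

set_option autoImplicit false
set_option Elab.async false

namespace Cfsg.Agent.H9.ON

open Cfsg.Agent.H16

theorem overRows_107415 : allFrom overRow 1023 107415 = true := by decide +kernel

theorem overRows_108438 : allFrom overRow 1023 108438 = true := by decide +kernel

theorem overRows_109461 : allFrom overRow 1023 109461 = true := by decide +kernel

theorem overRows_110484 : allFrom overRow 1023 110484 = true := by decide +kernel

theorem overRows_111507 : allFrom overRow 1023 111507 = true := by decide +kernel

theorem overRows_112530 : allFrom overRow 1023 112530 = true := by decide +kernel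

theorem overRows_113553 : allFrom overRow 1023 113553 = true := by decide +kernel

theorem overRows_114576 : allFrom overRow 1023 114576 = true := by decide +kernel

theorem overRows_115599 : allFrom overRow 1023 115599 = true := by decide +kernel

theorem overRows_116622 : allFrom overRow 1023 116622 = true := by decide +kernel

theorem overRows_117645 : allFrom overRow 1023 117645 = true := by decide +kernel

theorem overRows_118668 : allFrom overRow 1023 118668 = true := by decide +kernel

theorem overRows_119691 : allFrom overRow 1023 119691 = true := by decide +kernel

theorem overRows_120714 : allFrom overRow 1023 120714 = true := by decide +kernel

theorem overRows_121737 : allFrom overRow 1023 121737 = true := by decide +kernel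

end Cfsg.Agent.H9.ON
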