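import Cfsg.Agent.H9.ON.CoverCheck

/-! Kernel checks of the labelled relators. -/

set_option autoImplicit false
set_option Elab.async false

namespace Cfsg.Agent.H9.ON

open Cfsg.Agent.H16

theorem relRows_0 : allFrom relRow 341 0 = true := by decide +kernel

theorem relRows_341 : allFrom relRow 341 341 = true := by decide +kernel

theorem relRows_682 : allFrom relRow 341 682 = true := by decide +kernel

theorem relRows_1023 : allFrom relRow 341 1023 = true := by decide +kernel

theorem relRows_1364 : allFrom relRow 341 1364 = true := by decide +kernel

theorem relRows_1705 : allFrom relRow 341 1705 = true := by decide +kernel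

theorem relRows_2046 : allFrom relRow 341 2046 = true := by decide +kernel

theorem relRows_2387 : allFrom relRow 341 2387 = true := by decide +kernel

theorem relRows_2728 : allFrom relRow 341 2728 = true := by decide +kernel

theorem relRows_3069 : allFrom relRow 341 3069 = true := by decide +kernel

theorem relRows_3410 : allFrom relRow 341 3410 = true := by decide +kernel

theorem relRows_3751 : allFrom relRow 341 3751 = true := by decide +kernel

theorem relRows_4092 : allFrom relRow 341 4092 = true := by decide +kernel

theorem relRows_4433 : allFrom relRow 341 4433 = true := by decide +kernel

theorem relRows_4774 : allFrom relRow 341 4774 = true := by decide +kernel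

end Cfsg.Agent.H9.ON
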