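import Cfsg.Agent.H9.ON.CoverCheck

/-! Kernel checks of the labelled relators. -/

set_option autoImplicit false
set_option Elab.async false

namespace Cfsg.Agent.H9.ON

open Cfsg.Agent.H16

theorem relRows_5115 : allFrom relRow 341 5115 = true := by decide +kernel

theorem relRows_5456 : allFrom relRow 341 5456 = true := by decide +kernel

theorem relRows_5797 : allFrom relRow 341 5797 = true := by decide +kernel

theorem relRows_6138 : allFrom relRow 341 6138 = true := by decide +kernel

theorem relRows_6479 : allFrom relRow 341 6479 = true := by decide +kernel

theorem relRows_6820 : allFrom relRow 341 6820 = true := by decide +kernel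

theorem relRows_7161 : allFrom relRow 341 7161 = true := by decide +kernel

theorem relRows_7502 : allFrom relRow 341 7502 = true := by decide +kernel

theorem relRows_7843 : allFrom relRow 341 7843 = true := by decide +kernel

theorem relRows_8184 : allFrom relRow 341 8184 = true := by decide +kernel

theorem relRows_8525 : allFrom relRow 341 8525 = true := by decide +kernel

theorem relRows_8866 : allFrom relRow 341 8866 = true := by decide +kernel

theorem relRows_9207 : allFrom relRow 341 9207 = true := by decide +kernel

theorem relRows_9548 : allFrom relRow 341 9548 = true := by decide +kernel

theorem relRows_9889 : allFrom relRow 341 9889 = true := by decide +kernel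

end Cfsg.Agent.H9.ON
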