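import Cfsg.Agent.H9.ON.CoverCheck

/-! Kernel checks of the labelled relators. -/

set_option autoImplicit false
set_option Elab.async false

namespace Cfsg.Agent.H9.ON

open Cfsg.Agent.H16

theorem relRows_51150 : allFrom relRow 341 51150 = true := by decide +kernel

theorem relRows_51491 : allFrom relRow 341 51491 = true := by decide +kernel

theorem relRows_51832 : allFrom relRow 341 51832 = true := by decide +kernel

theorem relRows_52173 : allFrom relRow 341 52173 = true := by decide +kernel

theorem relRows_52514 : allFrom relRow 341 52514 = true := by decide +kernel

theorem relRows_52855 : allFrom relRow 341 52855 = true := by decide +kernel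

theorem relRows_53196 : allFrom relRow 341 53196 = true := by decide +kernel

theorem relRows_53537 : allFrom relRow 341 53537 = true := by decide +kernel

theorem relRows_53878 : allFrom relRow 341 53878 = true := by decide +kernel

theorem relRows_54219 : allFrom relRow 341 54219 = true := by decide +kernel

theorem relRows_54560 : allFrom relRow 341 54560 = true := by decide +kernel

theorem relRows_54901 : allFrom relRow 341 54901 = true := by decide +kernel

theorem relRows_55242 : allFrom relRow 341 55242 = true := by decide +kernel

theorem relRows_55583 : allFrom relRow 341 55583 = true := by decide +kernel

theorem relRows_55924 : allFrom relRow 341 55924 = true := by decide +kernel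

end Cfsg.Agent.H9.ON
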