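import Cfsg.Agent.H9.ON.CoverCheck

/-! Kernel checks of the labelled relators. -/

set_option autoImplicit false
set_option Elab.async false

namespace Cfsg.Agent.H9.ON

open Cfsg.Agent.H16

theorem relRows_56265 : allFrom relRow 341 56265 = true := by decide +kernel

theorem relRows_56606 : allFrom relRow 341 56606 = true := by decide +kernel

theorem relRows_56947 : allFrom relRow 341 56947 = true := by decide +kernel

theorem relRows_57288 : allFrom relRow 341 57288 = true := by decide +kernel

theorem relRows_57629 : allFrom relRow 341 57629 = true := by decide +kernel

theorem relRows_57970 : allFrom relRow 341 57970 = true := by decide +kernel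

theorem relRows_58311 : allFrom relRow 341 58311 = true := by decide +kernel

theorem relRows_58652 : allFrom relRow 341 58652 = true := by decide +kernel

theorem relRows_58993 : allFrom relRow 341 58993 = true := by decide +kernel

theorem relRows_59334 : allFrom relRow 341 59334 = true := by decide +kernel

theorem relRows_59675 : allFrom relRow 341 59675 = true := by decide +kernel

theorem relRows_60016 : allFrom relRow 341 60016 = true := by decide +kernel

theorem relRows_60357 : allFrom relRow 341 60357 = true := by decide +kernel

theorem relRows_60698 : allFrom relRow 341 60698 = true := by decide +kernel

theorem relRows_61039 : allFrom relRow 341 61039 = true := by decide +kernel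

end Cfsg.Agent.H9.ON
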