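import Cfsg.Agent.H9.ON.CoverCheck

/-! Kernel checks of the labelled relators. -/

set_option autoImplicit false
set_option Elab.async false

namespace Cfsg.Agent.H9.ON

open Cfsg.Agent.H16

theorem relRows_61380 : allFrom relRow 341 61380 = true := by decide +kernel

theorem relRows_61721 : allFrom relRow 341 61721 = true := by decide +kernel

theorem relRows_62062 : allFrom relRow 341 62062 = true := by decide +kernel

theorem relRows_62403 : allFrom relRow 341 62403 = true := by decide +kernel

theorem relRows_62744 : allFrom relRow 341 62744 = true := by decide +kernel

theorem relRows_63085 : allFrom relRow 341 63085 = true := by decide +kernel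

theorem relRows_63426 : allFrom relRow 341 63426 = true := by decide +kernel

theorem relRows_63767 : allFrom relRow 341 63767 = true := by decide +kernel

theorem relRows_64108 : allFrom relRow 341 64108 = true := by decide +kernel

theorem relRows_64449 : allFrom relRow 341 64449 = true := by decide +kernel

theorem relRows_64790 : allFrom relRow 341 64790 = true := by decide +kernel

theorem relRows_65131 : allFrom relRow 341 65131 = true := by decide +kernel

theorem relRows_65472 : allFrom relRow 341 65472 = true := by decide +kernel

theorem relRows_65813 : allFrom relRow 341 65813 = true := by decide +kernel

theorem relRows_66154 : allFrom relRow 341 66154 = true := by decide +kernel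

end Cfsg.Agent.H9.ON
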