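import Cfsg.Agent.H9.ON.CoverCheck

/-! Kernel checks of the labelled relators. -/

set_option autoImplicit false
set_option Elab.async false

namespace Cfsg.Agent.H9.ON

open Cfsg.Agent.H16

theorem relRows_66495 : allFrom relRow 341 66495 = true := by decide +kernel

theorem relRows_66836 : allFrom relRow 341 66836 = true := by decide +kernel

theorem relRows_67177 : allFrom relRow 341 67177 = true := by decide +kernel

theorem relRows_67518 : allFrom relRow 341 67518 = true := by decide +kernel

theorem relRows_67859 : allFrom relRow 341 67859 = true := by decide +kernel

theorem relRows_68200 : allFrom relRow 341 68200 = true := by decide +kernel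

theorem relRows_68541 : allFrom relRow 341 68541 = true := by decide +kernel

theorem relRows_68882 : allFrom relRow 341 68882 = true := by decide +kernel

theorem relRows_69223 : allFrom relRow 341 69223 = true := by decide +kernel

theorem relRows_69564 : allFrom relRow 341 69564 = true := by decide +kernel

theorem relRows_69905 : allFrom relRow 341 69905 = true := by decide +kernel

theorem relRows_70246 : allFrom relRow 341 70246 = true := by decide +kernel

theorem relRows_70587 : allFrom relRow 341 70587 = true := by decide +kernel

theorem relRows_70928 : allFrom relRow 341 70928 = true := by decide +kernel

theorem relRows_71269 : allFrom relRow 341 71269 = true := by decide +kernel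

end Cfsg.Agent.H9.ON
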