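import Cfsg.Agent.H9.ON.CoverCheck

/-! Kernel checks of the labelled relators. -/

set_option autoImplicit false
set_option Elab.async false

namespace Cfsg.Agent.H9.ON

open Cfsg.Agent.H16

theorem relRows_71610 : allFrom relRow 341 71610 = true := by decide +kernel

theorem relRows_71951 : allFrom relRow 341 71951 = true := by decide +kernel

theorem relRows_72292 : allFrom relRow 341 72292 = true := by decide +kernel

theorem relRows_72633 : allFrom relRow 341 72633 = true := by decide +kernel

theorem relRows_72974 : allFrom relRow 341 72974 = true := by decide +kernel

theorem relRows_73315 : allFrom relRow 341 73315 = true := by decide +kernel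

theorem relRows_73656 : allFrom relRow 341 73656 = true := by decide +kernel

theorem relRows_73997 : allFrom relRow 341 73997 = true := by decide +kernel

theorem relRows_74338 : allFrom relRow 341 74338 = true := by decide +kernel

theorem relRows_74679 : allFrom relRow 341 74679 = true := by decide +kernel

theorem relRows_75020 : allFrom relRow 341 75020 = true := by decide +kernel

theorem relRows_75361 : allFrom relRow 341 75361 = true := by decide +kernel

theorem relRows_75702 : allFrom relRow 341 75702 = true := by decide +kernel

theorem relRows_76043 : allFrom relRow 341 76043 = true := by decide +kernel

theorem relRows_76384 : allFrom relRow 341 76384 = true := by decide +kernel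

end Cfsg.Agent.H9.ON
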