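import Cfsg.Agent.H9.ON.CoverCheck

/-! Kernel checks of the labelled relators. -/

set_option autoImplicit false
set_option Elab.async false

namespace Cfsg.Agent.H9.ON

open Cfsg.Agent.H16

theorem relRows_76725 : allFrom relRow 341 76725 = true := by decide +kernel

theorem relRows_77066 : allFrom relRow 341 77066 = true := by decide +kernel

theorem relRows_77407 : allFrom relRow 341 77407 = true := by decide +kernel

theorem relRows_77748 : allFrom relRow 341 77748 = true := by decide +kernel

theorem relRows_78089 : allFrom relRow 341 78089 = true := by decide +kernel

theorem relRows_78430 : allFrom relRow 341 78430 = true := by decide +kernel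

theorem relRows_78771 : allFrom relRow 341 78771 = true := by decide +kernel

theorem relRows_79112 : allFrom relRow 341 79112 = true := by decide +kernel

theorem relRows_79453 : allFrom relRow 341 79453 = true := by decide +kernel

theorem relRows_79794 : allFrom relRow 341 79794 = true := by decide +kernel

theorem relRows_80135 : allFrom relRow 341 80135 = true := by decide +kernel

theorem relRows_80476 : allFrom relRow 341 80476 = true := by decide +kernel

theorem relRows_80817 : allFrom relRow 341 80817 = true := by decide +kernel

theorem relRows_81158 : allFrom relRow 341 81158 = true := by decide +kernel

theorem relRows_81499 : allFrom relRow 341 81499 = true := by decide +kernel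

end Cfsg.Agent.H9.ON
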