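import Cfsg.Agent.H9.ON.CoverCheck

/-! Kernel checks of the labelled relators. -/

set_option autoImplicit false
set_option Elab.async false

namespace Cfsg.Agent.H9.ON

open Cfsg.Agent.H16

theorem relRows_81840 : allFrom relRow 341 81840 = true := by decide +kernel

theorem relRows_82181 : allFrom relRow 341 82181 = true := by decide +kernel

theorem relRows_82522 : allFrom relRow 341 82522 = true := by decide +kernel

theorem relRows_82863 : allFrom relRow 341 82863 = true := by decide +kernel

theorem relRows_83204 : allFrom relRow 341 83204 = true := by decide +kernel

theorem relRows_83545 : allFrom relRow 341 83545 = true := by decide +kernel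

theorem relRows_83886 : allFrom relRow 341 83886 = true := by decide +kernel

theorem relRows_84227 : allFrom relRow 341 84227 = true := by decide +kernel

theorem relRows_84568 : allFrom relRow 341 84568 = true := by decide +kernel

theorem relRows_84909 : allFrom relRow 341 84909 = true := by decide +kernel

theorem relRows_85250 : allFrom relRow 341 85250 = true := by decide +kernel

theorem relRows_85591 : allFrom relRow 341 85591 = true := by decide +kernel

theorem relRows_85932 : allFrom relRow 341 85932 = true := by decide +kernel

theorem relRows_86273 : allFrom relRow 341 86273 = true := by decide +kernel

theorem relRows_86614 : allFrom relRow 341 86614 = true := by decide +kernel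

end Cfsg.Agent.H9.ON
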