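import Cfsg.Agent.H9.ON.CoverCheck

/-! Kernel checks of the labelled relators. -/

set_option autoImplicit false
set_option Elab.async false

namespace Cfsg.Agent.H9.ON

open Cfsg.Agent.H16

theorem relRows_86955 : allFrom relRow 341 86955 = true := by decide +kernel

theorem relRows_87296 : allFrom relRow 341 87296 = true := by decide +kernel

theorem relRows_87637 : allFrom relRow 341 87637 = true := by decide +kernel

theorem relRows_87978 : allFrom relRow 341 87978 = true := by decide +kernel

theorem relRows_88319 : allFrom relRow 341 88319 = true := by decide +kernel

theorem relRows_88660 : allFrom relRow 341 88660 = true := by decide +kernel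

theorem relRows_89001 : allFrom relRow 341 89001 = true := by decide +kernel

theorem relRows_89342 : allFrom relRow 341 89342 = true := by decide +kernel

theorem relRows_89683 : allFrom relRow 341 89683 = true := by decide +kernel

theorem relRows_90024 : allFrom relRow 341 90024 = true := by decide +kernel

theorem relRows_90365 : allFrom relRow 341 90365 = true := by decide +kernel

theorem relRows_90706 : allFrom relRow 341 90706 = true := by decide +kernel

theorem relRows_91047 : allFrom relRow 341 91047 = true := by decide +kernel

theorem relRows_91388 : allFrom relRow 341 91388 = true := by decide +kernel

theorem relRows_91729 : allFrom relRow 341 91729 = true := by decide +kernel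

end Cfsg.Agent.H9.ON
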