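import Cfsg.Agent.H9.ON.CoverCheck

/-! Kernel checks of the labelled relators. -/

set_option autoImplicit false
set_option Elab.async false

namespace Cfsg.Agent.H9.ON

open Cfsg.Agent.H16

theorem relRows_92070 : allFrom relRow 341 92070 = true := by decide +kernel

theorem relRows_92411 : allFrom relRow 341 92411 = true := by decide +kernel

theorem relRows_92752 : allFrom relRow 341 92752 = true := by decide +kernel

theorem relRows_93093 : allFrom relRow 341 93093 = true := by decide +kernel

theorem relRows_93434 : allFrom relRow 341 93434 = true := by decide +kernel

theorem relRows_93775 : allFrom relRow 341 93775 = true := by decide +kernel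

theorem relRows_94116 : allFrom relRow 341 94116 = true := by decide +kernel

theorem relRows_94457 : allFrom relRow 341 94457 = true := by decide +kernel

theorem relRows_94798 : allFrom relRow 341 94798 = true := by decide +kernel

theorem relRows_95139 : allFrom relRow 341 95139 = true := by decide +kernel

theorem relRows_95480 : allFrom relRow 341 95480 = true := by decide +kernel

theorem relRows_95821 : allFrom relRow 341 95821 = true := by decide +kernel

theorem relRows_96162 : allFrom relRow 341 96162 = true := by decide +kernel

theorem relRows_96503 : allFrom relRow 341 96503 = true := by decide +kernel

theorem relRows_96844 : allFrom relRow 341 96844 = true := by decide +kernel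

end Cfsg.Agent.H9.ON
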