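import Cfsg.Agent.H9.ON.CoverCheck

/-! Kernel checks of the labelled relators. -/

set_option autoImplicit false
set_option Elab.async false

namespace Cfsg.Agent.H9.ON

open Cfsg.Agent.H16

theorem relRows_97185 : allFrom relRow 341 97185 = true := by decide +kernel

theorem relRows_97526 : allFrom relRow 341 97526 = true := by decide +kernel

theorem relRows_97867 : allFrom relRow 341 97867 = true := by decide +kernel

theorem relRows_98208 : allFrom relRow 341 98208 = true := by decide +kernel

theorem relRows_98549 : allFrom relRow 341 98549 = true := by decide +kernel

theorem relRows_98890 : allFrom relRow 341 98890 = true := by decide +kernel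

theorem relRows_99231 : allFrom relRow 341 99231 = true := by decide +kernel

theorem relRows_99572 : allFrom relRow 341 99572 = true := by decide +kernel

theorem relRows_99913 : allFrom relRow 341 99913 = true := by decide +kernel

theorem relRows_100254 : allFrom relRow 341 100254 = true := by decide +kernel

theorem relRows_100595 : allFrom relRow 341 100595 = true := by decide +kernel

theorem relRows_100936 : allFrom relRow 341 100936 = true := by decide +kernel

theorem relRows_101277 : allFrom relRow 341 101277 = true := by decide +kernel

theorem relRows_101618 : allFrom relRow 341 101618 = true := by decide +kernel

theorem relRows_101959 : allFrom relRow 341 101959 = true := by decide +kernel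

end Cfsg.Agent.H9.ON
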