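import Cfsg.Agent.H9.ON.CoverCheck

/-! Kernel checks of the labelled relators. -/

set_option autoImplicit false
set_option Elab.async false

namespace Cfsg.Agent.H9.ON

open Cfsg.Agent.H16

theorem relRows_10230 : allFrom relRow 341 10230 = true := by decide +kernel

theorem relRows_10571 : allFrom relRow 341 10571 = true := by decide +kernel

theorem relRows_10912 : allFrom relRow 341 10912 = true := by decide +kernel

theorem relRows_11253 : allFrom relRow 341 11253 = true := by decide +kernel

theorem relRows_11594 : allFrom relRow 341 11594 = true := by decide +kernel

theorem relRows_11935 : allFrom relRow 341 11935 = true := by decide +kernel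

theorem relRows_12276 : allFrom relRow 341 12276 = true := by decide +kernel

theorem relRows_12617 : allFrom relRow 341 12617 = true := by decide +kernel

theorem relRows_12958 : allFrom relRow 341 12958 = true := by decide +kernel

theorem relRows_13299 : allFrom relRow 341 13299 = true := by decide +kernel

theorem relRows_13640 : allFrom relRow 341 13640 = true := by decide +kernel

theorem relRows_13981 : allFrom relRow 341 13981 = true := by decide +kernel

theorem relRows_14322 : allFrom relRow 341 14322 = true := by decide +kernel

theorem relRows_14663 : allFrom relRow 341 14663 = true := by decide +kernel

theorem relRows_15004 : allFrom relRow 341 15004 = true := by decide +kernel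

end Cfsg.Agent.H9.ON
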