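import Cfsg.Agent.H9.ON.CoverCheck

/-! Kernel checks of the labelled relators. -/

set_option autoImplicit false
set_option Elab.async false

namespace Cfsg.Agent.H9.ON

open Cfsg.Agent.H16

theorem relRows_102300 : allFrom relRow 341 102300 = true := by decide +kernel

theorem relRows_102641 : allFrom relRow 341 102641 = true := by decide +kernel

theorem relRows_102982 : allFrom relRow 341 102982 = true := by decide +kernel

theorem relRows_103323 : allFrom relRow 341 103323 = true := by decide +kernel

theorem relRows_103664 : allFrom relRow 341 103664 = true := by decide +kernel

theorem relRows_104005 : allFrom relRow 341 104005 = true := by decide +kernel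

theorem relRows_104346 : allFrom relRow 341 104346 = true := by decide +kernel

theorem relRows_104687 : allFrom relRow 341 104687 = true := by decide +kernel

theorem relRows_105028 : allFrom relRow 341 105028 = true := by decide +kernel

theorem relRows_105369 : allFrom relRow 341 105369 = true := by decide +kernel

theorem relRows_105710 : allFrom relRow 341 105710 = true := by decide +kernel

theorem relRows_106051 : allFrom relRow 341 106051 = true := by decide +kernel

theorem relRows_106392 : allFrom relRow 341 106392 = true := by decide +kernel

theorem relRows_106733 : allFrom relRow 341 106733 = true := by decide +kernel

theorem relRows_107074 : allFrom relRow 341 107074 = true := by decide +kernel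

end Cfsg.Agent.H9.ON
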