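import Cfsg.Agent.H9.ON.CoverCheck

/-! Kernel checks of the labelled relators. -/

set_option autoImplicit false
set_option Elab.async false

namespace Cfsg.Agent.H9.ON

open Cfsg.Agent.H16

theorem relRows_107415 : allFrom relRow 341 107415 = true := by decide +kernel

theorem relRows_107756 : allFrom relRow 341 107756 = true := by decide +kernel

theorem relRows_108097 : allFrom relRow 341 108097 = true := by decide +kernel

theorem relRows_108438 : allFrom relRow 341 108438 = true := by decide +kernel

theorem relRows_108779 : allFrom relRow 341 108779 = true := by decide +kernel

theorem relRows_109120 : allFrom relRow 341 109120 = true := by decide +kernel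

theorem relRows_109461 : allFrom relRow 341 109461 = true := by decide +kernel

theorem relRows_109802 : allFrom relRow 341 109802 = true := by decide +kernel

theorem relRows_110143 : allFrom relRow 341 110143 = true := by decide +kernel

theorem relRows_110484 : allFrom relRow 341 110484 = true := by decide +kernel

theorem relRows_110825 : allFrom relRow 341 110825 = true := by decide +kernel

theorem relRows_111166 : allFrom relRow 341 111166 = true := by decide +kernel

theorem relRows_111507 : allFrom relRow 341 111507 = true := by decide +kernel

theorem relRows_111848 : allFrom relRow 341 111848 = true := by decide +kernel

theorem relRows_112189 : allFrom relRow 341 112189 = true := by decide +kernel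

end Cfsg.Agent.H9.ON
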