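import Cfsg.Agent.H9.ON.CoverCheck

/-! Kernel checks of the labelled relators. -/

set_option autoImplicit false
set_option Elab.async false

namespace Cfsg.Agent.H9.ON

open Cfsg.Agent.H16

theorem relRows_112530 : allFrom relRow 341 112530 = true := by decide +kernel

theorem relRows_112871 : allFrom relRow 341 112871 = true := by decide +kernel

theorem relRows_113212 : allFrom relRow 341 113212 = true := by decide +kernel

theorem relRows_113553 : allFrom relRow 341 113553 = true := by decide +kernel

theorem relRows_113894 : allFrom relRow 341 113894 = true := by decide +kernel

theorem relRows_114235 : allFrom relRow 341 114235 = true := by decide +kernel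

theorem relRows_114576 : allFrom relRow 341 114576 = true := by decide +kernel

theorem relRows_114917 : allFrom relRow 341 114917 = true := by decide +kernel

theorem relRows_115258 : allFrom relRow 341 115258 = true := by decide +kernel

theorem relRows_115599 : allFrom relRow 341 115599 = true := by decide +kernel

theorem relRows_115940 : allFrom relRow 341 115940 = true := by decide +kernel

theorem relRows_116281 : allFrom relRow 341 116281 = true := by decide +kernel

theorem relRows_116622 : allFrom relRow 341 116622 = true := by decide +kernel

theorem relRows_116963 : allFrom relRow 341 116963 = true := by decide +kernel

theorem relRows_117304 : allFrom relRow 341 117304 = true := by decide +kernel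

end Cfsg.Agent.H9.ON
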