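import Cfsg.Agent.H9.ON.CoverCheck

/-! Kernel checks of the labelled relators. -/

set_option autoImplicit false
set_option Elab.async false

namespace Cfsg.Agent.H9.ON

open Cfsg.Agent.H16

theorem relRows_117645 : allFrom relRow 341 117645 = true := by decide +kernel

theorem relRows_117986 : allFrom relRow 341 117986 = true := by decide +kernel

theorem relRows_118327 : allFrom relRow 341 118327 = true := by decide +kernel

theorem relRows_118668 : allFrom relRow 341 118668 = true := by decide +kernel

theorem relRows_119009 : allFrom relRow 341 119009 = true := by decide +kernel

theorem relRows_119350 : allFrom relRow 341 119350 = true := by decide +kernel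

theorem relRows_119691 : allFrom relRow 341 119691 = true := by decide +kernel

theorem relRows_120032 : allFrom relRow 341 120032 = true := by decide +kernel

theorem relRows_120373 : allFrom relRow 341 120373 = true := by decide +kernel

theorem relRows_120714 : allFrom relRow 341 120714 = true := by decide +kernel

theorem relRows_121055 : allFrom relRow 341 121055 = true := by decide +kernel

theorem relRows_121396 : allFrom relRow 341 121396 = true := by decide +kernel

theorem relRows_121737 : allFrom relRow 341 121737 = true := by decide +kernel

theorem relRows_122078 : allFrom relRow 341 122078 = true := by decide +kernel

theorem relRows_122419 : allFrom relRow 341 122419 = true := by decide +kernel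

end Cfsg.Agent.H9.ON
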