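import Cfsg.Agent.H9.ON.CoverCheck

/-! Kernel checks of the labelled relators. -/

set_option autoImplicit false
set_option Elab.async false

namespace Cfsg.Agent.H9.ON

open Cfsg.Agent.H16

theorem relRows_15345 : allFrom relRow 341 15345 = true := by decide +kernel

theorem relRows_15686 : allFrom relRow 341 15686 = true := by decide +kernel

theorem relRows_16027 : allFrom relRow 341 16027 = true := by decide +kernel

theorem relRows_16368 : allFrom relRow 341 16368 = true := by decide +kernel

theorem relRows_16709 : allFrom relRow 341 16709 = true := by decide +kernel

theorem relRows_17050 : allFrom relRow 341 17050 = true := by decide +kernel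

theorem relRows_17391 : allFrom relRow 341 17391 = true := by decide +kernel

theorem relRows_17732 : allFrom relRow 341 17732 = true := by decide +kernel

theorem relRows_18073 : allFrom relRow 341 18073 = true := by decide +kernel

theorem relRows_18414 : allFrom relRow 341 18414 = true := by decide +kernel

theorem relRows_18755 : allFrom relRow 341 18755 = true := by decide +kernel

theorem relRows_19096 : allFrom relRow 341 19096 = true := by decide +kernel

theorem relRows_19437 : allFrom relRow 341 19437 = true := by decide +kernel

theorem relRows_19778 : allFrom relRow 341 19778 = true := by decide +kernel

theorem relRows_20119 : allFrom relRow 341 20119 = true := by decide +kernel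

end Cfsg.Agent.H9.ON
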