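import Cfsg.Agent.H9.ON.CoverCheck

/-! Kernel checks of the labelled relators. -/

set_option autoImplicit false
set_option Elab.async false

namespace Cfsg.Agent.H9.ON

open Cfsg.Agent.H16

theorem relRows_20460 : allFrom relRow 341 20460 = true := by decide +kernel

theorem relRows_20801 : allFrom relRow 341 20801 = true := by decide +kernel

theorem relRows_21142 : allFrom relRow 341 21142 = true := by decide +kernel

theorem relRows_21483 : allFrom relRow 341 21483 = true := by decide +kernel

theorem relRows_21824 : allFrom relRow 341 21824 = true := by decide +kernel

theorem relRows_22165 : allFrom relRow 341 22165 = true := by decide +kernel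

theorem relRows_22506 : allFrom relRow 341 22506 = true := by decide +kernel

theorem relRows_22847 : allFrom relRow 341 22847 = true := by decide +kernel

theorem relRows_23188 : allFrom relRow 341 23188 = true := by decide +kernel

theorem relRows_23529 : allFrom relRow 341 23529 = true := by decide +kernel

theorem relRows_23870 : allFrom relRow 341 23870 = true := by decide +kernel

theorem relRows_24211 : allFrom relRow 341 24211 = true := by decide +kernel

theorem relRows_24552 : allFrom relRow 341 24552 = true := by decide +kernel

theorem relRows_24893 : allFrom relRow 341 24893 = true := by decide +kernel

theorem relRows_25234 : allFrom relRow 341 25234 = true := by decide +kernel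

end Cfsg.Agent.H9.ON
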