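import Cfsg.Agent.H9.ON.CoverCheck

/-! Kernel checks of the labelled relators. -/

set_option autoImplicit false
set_option Elab.async false

namespace Cfsg.Agent.H9.ON

open Cfsg.Agent.H16

theorem relRows_25575 : allFrom relRow 341 25575 = true := by decide +kernel

theorem relRows_25916 : allFrom relRow 341 25916 = true := by decide +kernel

theorem relRows_26257 : allFrom relRow 341 26257 = true := by decide +kernel

theorem relRows_26598 : allFrom relRow 341 26598 = true := by decide +kernel

theorem relRows_26939 : allFrom relRow 341 26939 = true := by decide +kernel

theorem relRows_27280 : allFrom relRow 341 27280 = true := by decide +kernel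

theorem relRows_27621 : allFrom relRow 341 27621 = true := by decide +kernel

theorem relRows_27962 : allFrom relRow 341 27962 = true := by decide +kernel

theorem relRows_28303 : allFrom relRow 341 28303 = true := by decide +kernel

theorem relRows_28644 : allFrom relRow 341 28644 = true := by decide +kernel

theorem relRows_28985 : allFrom relRow 341 28985 = true := by decide +kernel

theorem relRows_29326 : allFrom relRow 341 29326 = true := by decide +kernel

theorem relRows_29667 : allFrom relRow 341 29667 = true := by decide +kernel

theorem relRows_30008 : allFrom relRow 341 30008 = true := by decide +kernel

theorem relRows_30349 : allFrom relRow 341 30349 = true := by decide +kernel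

end Cfsg.Agent.H9.ON
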