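import Cfsg.Agent.H9.ON.CoverCheck

/-! Kernel checks of the labelled relators. -/

set_option autoImplicit false
set_option Elab.async false

namespace Cfsg.Agent.H9.ON

open Cfsg.Agent.H16

theorem relRows_30690 : allFrom relRow 341 30690 = true := by decide +kernel

theorem relRows_31031 : allFrom relRow 341 31031 = true := by decide +kernel

theorem relRows_31372 : allFrom relRow 341 31372 = true := by decide +kernel

theorem relRows_31713 : allFrom relRow 341 31713 = true := by decide +kernel

theorem relRows_32054 : allFrom relRow 341 32054 = true := by decide +kernel

theorem relRows_32395 : allFrom relRow 341 32395 = true := by decide +kernel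

theorem relRows_32736 : allFrom relRow 341 32736 = true := by decide +kernel

theorem relRows_33077 : allFrom relRow 341 33077 = true := by decide +kernel

theorem relRows_33418 : allFrom relRow 341 33418 = true := by decide +kernel

theorem relRows_33759 : allFrom relRow 341 33759 = true := by decide +kernel

theorem relRows_34100 : allFrom relRow 341 34100 = true := by decide +kernel

theorem relRows_34441 : allFrom relRow 341 34441 = true := by decide +kernel

theorem relRows_34782 : allFrom relRow 341 34782 = true := by decide +kernel

theorem relRows_35123 : allFrom relRow 341 35123 = true := by decide +kernel

theorem relRows_35464 : allFrom relRow 341 35464 = true := by decide +kernel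

end Cfsg.Agent.H9.ON
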