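import Cfsg.Agent.H9.ON.CoverCheck

/-! Kernel checks of the labelled relators. -/

set_option autoImplicit false
set_option Elab.async false

namespace Cfsg.Agent.H9.ON

open Cfsg.Agent.H16

theorem relRows_35805 : allFrom relRow 341 35805 = true := by decide +kernel

theorem relRows_36146 : allFrom relRow 341 36146 = true := by decide +kernel

theorem relRows_36487 : allFrom relRow 341 36487 = true := by decide +kernel

theorem relRows_36828 : allFrom relRow 341 36828 = true := by decide +kernel

theorem relRows_37169 : allFrom relRow 341 37169 = true := by decide +kernel

theorem relRows_37510 : allFrom relRow 341 37510 = true := by decide +kernel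

theorem relRows_37851 : allFrom relRow 341 37851 = true := by decide +kernel

theorem relRows_38192 : allFrom relRow 341 38192 = true := by decide +kernel

theorem relRows_38533 : allFrom relRow 341 38533 = true := by decide +kernel

theorem relRows_38874 : allFrom relRow 341 38874 = true := by decide +kernel

theorem relRows_39215 : allFrom relRow 341 39215 = true := by decide +kernel

theorem relRows_39556 : allFrom relRow 341 39556 = true := by decide +kernel

theorem relRows_39897 : allFrom relRow 341 39897 = true := by decide +kernel

theorem relRows_40238 : allFrom relRow 341 40238 = true := by decide +kernel

theorem relRows_40579 : allFrom relRow 341 40579 = true := by decide +kernel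

end Cfsg.Agent.H9.ON
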