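import Cfsg.Agent.H9.ON.CoverCheck

/-! Kernel checks of the labelled relators. -/

set_option autoImplicit false
set_option Elab.async false

namespace Cfsg.Agent.H9.ON

open Cfsg.Agent.H16

theorem relRows_40920 : allFrom relRow 341 40920 = true := by decide +kernel

theorem relRows_41261 : allFrom relRow 341 41261 = true := by decide +kernel

theorem relRows_41602 : allFrom relRow 341 41602 = true := by decide +kernel

theorem relRows_41943 : allFrom relRow 341 41943 = true := by decide +kernel

theorem relRows_42284 : allFrom relRow 341 42284 = true := by decide +kernel

theorem relRows_42625 : allFrom relRow 341 42625 = true := by decide +kernel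

theorem relRows_42966 : allFrom relRow 341 42966 = true := by decide +kernel

theorem relRows_43307 : allFrom relRow 341 43307 = true := by decide +kernel

theorem relRows_43648 : allFrom relRow 341 43648 = true := by decide +kernel

theorem relRows_43989 : allFrom relRow 341 43989 = true := by decide +kernel

theorem relRows_44330 : allFrom relRow 341 44330 = true := by decide +kernel

theorem relRows_44671 : allFrom relRow 341 44671 = true := by decide +kernel

theorem relRows_45012 : allFrom relRow 341 45012 = true := by decide +kernel

theorem relRows_45353 : allFrom relRow 341 45353 = true := by decide +kernel

theorem relRows_45694 : allFrom relRow 341 45694 = true := by decide +kernel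

end Cfsg.Agent.H9.ON
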