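import Cfsg.Agent.H9.ON.CoverCheck

/-! Kernel checks of the labelled relators. -/

set_option autoImplicit false
set_option Elab.async false

namespace Cfsg.Agent.H9.ON

open Cfsg.Agent.H16

theorem relRows_46035 : allFrom relRow 341 46035 = true := by decide +kernel

theorem relRows_46376 : allFrom relRow 341 46376 = true := by decide +kernel

theorem relRows_46717 : allFrom relRow 341 46717 = true := by decide +kernel

theorem relRows_47058 : allFrom relRow 341 47058 = true := by decide +kernel

theorem relRows_47399 : allFrom relRow 341 47399 = true := by decide +kernel

theorem relRows_47740 : allFrom relRow 341 47740 = true := by decide +kernel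

theorem relRows_48081 : allFrom relRow 341 48081 = true := by decide +kernel

theorem relRows_48422 : allFrom relRow 341 48422 = true := by decide +kernel

theorem relRows_48763 : allFrom relRow 341 48763 = true := by decide +kernel

theorem relRows_49104 : allFrom relRow 341 49104 = true := by decide +kernel

theorem relRows_49445 : allFrom relRow 341 49445 = true := by decide +kernel

theorem relRows_49786 : allFrom relRow 341 49786 = true := by decide +kernel

theorem relRows_50127 : allFrom relRow 341 50127 = true := by decide +kernel

theorem relRows_50468 : allFrom relRow 341 50468 = true := by decide +kernel

theorem relRows_50809 : allFrom relRow 341 50809 = true := by decide +kernel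

end Cfsg.Agent.H9.ON
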